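import Mathlib
import Cfsg.Prelude.Def_Transfer
import Cfsg.Agent.Lib.PGroups.Frattini

/-!
The Pauli group `2^(1+2n)_+` in its real monomial representation over `ZMod 3`, and the lifting of every
isometry of its quadratic space to the normalizer of that representation.
-/

set_option autoImplicit false

open scoped commutatorElement

namespace CfsgLib.Replacement.Pauli

/-- Binary vectors. -/
abbrev BV (n : ℕ) := Fin n → ZMod 2

variable {n : ℕ}

/-- Dot product. -/
def dot (a b : BV n) : ZMod 2 := ∑ i, a i * b i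

theorem dot_comm (a b : BV n) : dot a b = dot b a := Finset.sum_congr rfl fun _ _ => mul_comm _ _

theorem dot_add_left (a a' b : BV n) : dot (a + a') b = dot a b + dot a' b := by
  simp [dot, add_mul, Finset.sum_add_distrib]

theorem dot_add_right (a b b' : BV n) : dot a (b + b') = dot a b + dot a b' := by
  simp [dot, mul_add, Finset.sum_add_distrib]

@[simp] theorem dot_zero_left (b : BV n) : dot 0 b = 0 := by simp [dot]

@[simp] theorem dot_zero_right (b : BV n) : dot b 0 = 0 := by simp [dot]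

theorem dot_single (a : BV n) (i : Fin n) : dot a (Pi.single i 1) = a i := by
  simp [dot, Pi.single_apply]

theorem add_self_bv (a : BV n) : a + a = 0 := funext fun i => CharTwo.add_self_eq_zero (a i)

/-- The sign `(-1)^t`. -/
def sgn (t : ZMod 2) : (ZMod 3)ˣ := if t = 0 then 1 else -1

@[simp] theorem sgn_zero : sgn 0 = 1 := rfl

theorem sgn_add (s t : ZMod 2) : sgn (s + t) = sgn s * sgn t := by revert s t; decide

theorem sgn_mul_self (t : ZMod 2) : sgn t * sgn t = 1 := by revert t; decide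

theorem sgn_eq_one_iff (t : ZMod 2) : sgn t = 1 ↔ t = 0 := by revert t; decide

theorem unit_mul_self (u : (ZMod 3)ˣ) : u * u = 1 := by revert u; decide

theorem sgn_inj : ∀ s t : ZMod 2, sgn s = sgn t → s = t := by decide

theorem exists_sgn_eq (u : (ZMod 3)ˣ) : ∃ t, sgn t = u := by revert u; decide

/-- Signed Pauli operators. -/
@[ext] structure Pauli (n : ℕ) where
  /-- sign -/
  s : (ZMod 3)ˣ
  /-- translation part -/
  a : BV n
  /-- character part -/
  b : BV n

instance : One (Pauli n) := ⟨⟨1, 0, 0⟩⟩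
instance : Mul (Pauli n) := ⟨fun g h => ⟨g.s * h.s * sgn (dot h.b g.a), g.a + h.a, g.b + h.b⟩⟩
instance : Inv (Pauli n) := ⟨fun g => ⟨g.s⁻¹ * sgn (dot g.b g.a), g.a, g.b⟩⟩

theorem mul_def (g h : Pauli n) : g * h = ⟨g.s * h.s * sgn (dot h.b g.a), g.a + h.a, g.b + h.b⟩ := rfl
theorem one_def : (1 : Pauli n) = ⟨1, 0, 0⟩ := rfl

instance : Group (Pauli n) :=
  Group.ofLeftAxioms
    (fun x y z => by
      refine Pauli.ext ?_ (add_assoc _ _ _) (add_assoc _ _ _)
      simp only [mul_def, dot_add_left, dot_add_right, sgn_add]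
      ac_rfl)
    (fun x => by
      refine Pauli.ext ?_ (zero_add _) (zero_add _)
      show 1 * x.s * sgn (dot x.b 0) = x.s
      simp)
    (fun x => by
      refine Pauli.ext ?_ (add_self_bv _) (add_self_bv _)
      show x.s⁻¹ * sgn (dot x.b x.a) * x.s * sgn (dot x.b x.a) = 1
      rw [mul_right_comm x.s⁻¹, inv_mul_cancel, one_mul, sgn_mul_self])

/-- The equivalence with the triples. -/
def equivProd : Pauli n ≃ (ZMod 3)ˣ × BV n × BV n where
  toFun g := (g.s, g.a, g.b)
  invFun g := ⟨g.1, g.2.1, g.2.2⟩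
  left_inv _ := rfl
  right_inv _ := rfl

instance : Finite (Pauli n) := Finite.of_equiv _ equivProd.symm

theorem card_units_three : Nat.card (ZMod 3)ˣ = 2 := by
  rw [Nat.card_eq_fintype_card]; rfl

theorem card_pauli : Nat.card (Pauli n) = 2 ^ (2 * n + 1) := by
  rw [Nat.card_congr equivProd, Nat.card_prod, Nat.card_prod, card_units_three, Nat.card_fun,
    Nat.card_zmod, Nat.card_fin]
  ring

/-- The image in the quadratic space. -/
def pr : Pauli n →* Multiplicative (BV n × BV n) where
  toFun g := Multiplicative.ofAdd (g.a, g.b)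
  map_one' := rfl
  map_mul' _ _ := rfl

theorem pr_surjective : Function.Surjective (pr (n := n)) := fun u =>
  ⟨⟨1, (Multiplicative.toAdd u).1, (Multiplicative.toAdd u).2⟩, rfl⟩

/-- The polar form. -/
def pol (u v : BV n × BV n) : ZMod 2 := dot v.2 u.1 + dot u.2 v.1

/-- The central elements. -/
def zeta (z : (ZMod 3)ˣ) : Pauli n := ⟨z, 0, 0⟩

theorem zeta_mul (z : (ZMod 3)ˣ) (g : Pauli n) : zeta z * g = ⟨z * g.s, g.a, g.b⟩ := by
  rw [zeta, mul_def]; simp

theorem commute_eq (g h : Pauli n) :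
    g * h = zeta (sgn (pol (g.a, g.b) (h.a, h.b))) * (h * g) := by
  rw [zeta_mul, mul_def, mul_def]
  refine Pauli.ext ?_ (add_comm _ _) (add_comm _ _)
  show g.s * h.s * sgn (dot h.b g.a) = sgn (dot h.b g.a + dot g.b h.a) * (h.s * g.s * sgn (dot g.b h.a))
  rw [sgn_add]
  calc g.s * h.s * sgn (dot h.b g.a)
      = g.s * h.s * sgn (dot h.b g.a) * (sgn (dot g.b h.a) * sgn (dot g.b h.a)) := by
        rw [sgn_mul_self, mul_one]
    _ = _ := by ac_rfl

theorem mul_self_eq (g : Pauli n) : g * g = zeta (sgn (dot g.a g.b)) := by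
  rw [mul_def, zeta]
  refine Pauli.ext ?_ (add_self_bv _) (add_self_bv _)
  show g.s * g.s * sgn (dot g.b g.a) = sgn (dot g.a g.b)
  rw [unit_mul_self, one_mul, dot_comm]

theorem zeta_mem_center (z : (ZMod 3)ˣ) : zeta z ∈ Subgroup.center (Pauli n) :=
  Subgroup.mem_center_iff.2 fun g => by
    rw [commute_eq g (zeta z)]
    simp [zeta, pol, mul_def]

theorem mem_center_iff {g : Pauli n} : g ∈ Subgroup.center (Pauli n) ↔ g.a = 0 ∧ g.b = 0 := by
  constructor
  · intro h
    have key : ∀ k : Pauli n, pol (g.a, g.b) (k.a, k.b) = 0 := by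
      intro k
      have h1 := commute_eq g k
      rw [(Subgroup.mem_center_iff.1 h k), eq_comm, mul_eq_right] at h1
      exact (sgn_eq_one_iff _).1 (congrArg Pauli.s h1 :)
    refine ⟨funext fun i => ?_, funext fun i => ?_⟩
    · have := key ⟨1, 0, Pi.single i 1⟩
      simpa [pol, dot_comm, dot_single] using this
    · have := key ⟨1, Pi.single i 1, 0⟩
      simpa [pol, dot_comm, dot_single] using this
  · rintro ⟨ha, hb⟩
    have : g = zeta g.s := Pauli.ext rfl ha hb
    rw [this]
    exact zeta_mem_center _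

theorem pr_eq_one_iff {g : Pauli n} : pr g = 1 ↔ g ∈ Subgroup.center (Pauli n) := by
  rw [mem_center_iff]
  exact ⟨fun h => ⟨congrArg (fun u => (Multiplicative.toAdd u).1) h,
    congrArg (fun u => (Multiplicative.toAdd u).2) h⟩,
    fun h => congrArg Multiplicative.ofAdd (Prod.ext h.1 h.2)⟩

theorem isExtraspecial (hn : 1 ≤ n) : Cfsg.IsExtraspecial 2 (Pauli n) := by
  haveI : Fact (Nat.Prime 2) := ⟨Nat.prime_two⟩
  have hP : IsPGroup 2 (Pauli n) := IsPGroup.of_card card_pauli
  have hZ : Nat.card (Subgroup.center (Pauli n)) = 2 := by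
    rw [← card_units_three]
    refine Nat.card_congr ⟨fun g => g.1.s, fun z => ⟨zeta z, zeta_mem_center z⟩, fun g => ?_, fun z => rfl⟩
    exact Subtype.ext (Pauli.ext rfl (mem_center_iff.1 g.2).1.symm (mem_center_iff.1 g.2).2.symm)
  have hle : commutator (Pauli n) ≤ Subgroup.center (Pauli n) := by
    rw [commutator_def, Subgroup.commutator_le]
    intro g _ h _
    rw [← pr_eq_one_iff, map_commutatorElement, commutatorElement_eq_one_iff_mul_comm]
    exact mul_comm _ _
  have hge : Subgroup.center (Pauli n) ≤ commutator (Pauli n) := by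
    intro g hg
    obtain ⟨ha, hb⟩ := mem_center_iff.1 hg
    rcases exists_sgn_eq g.s with ⟨t, ht⟩
    set x : Pauli n := ⟨1, Pi.single ⟨0, hn⟩ t, 0⟩
    set y : Pauli n := ⟨1, 0, Pi.single ⟨0, hn⟩ 1⟩
    have hg' : g = ⁅x, y⁆ := by
      rw [commutatorElement_def, commute_eq x y,
        show ∀ c : Pauli n, c * (y * x) * x⁻¹ * y⁻¹ = c from fun c => by group]
      refine Pauli.ext ?_ ha hb
      show g.s = sgn (dot (Pi.single ⟨0, hn⟩ 1) (Pi.single ⟨0, hn⟩ t) + dot (0 : BV n) 0)
      rw [dot_zero_left, add_zero, dot_comm, dot_single, Pi.single_eq_same, ht]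
    rw [hg']
    exact Subgroup.commutator_mem_commutator (Subgroup.mem_top x) (Subgroup.mem_top y)
  refine ⟨⟨hP, le_antisymm ?_ ?_, le_antisymm hle hge⟩, hZ⟩
  · refine CfsgLib.PGroups.frattini_le_of (p := 2) hle fun g => ?_
    rw [pow_two, mul_self_eq]
    exact zeta_mem_center _
  · exact hge.trans (CfsgLib.PGroups.commutator_le_frattini hP)

/-- The operators. -/
abbrev Op (n : ℕ) := (BV n → ZMod 3) ≃ₗ[ZMod 3] (BV n → ZMod 3)

instance : Finite (Op n) := Finite.of_injective (fun M => (M : (BV n → ZMod 3) → (BV n → ZMod 3)))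
  fun _ _ h => LinearEquiv.ext fun f => congrFun h f

/-- A Pauli element as a linear map. -/
def opLin (g : Pauli n) : (BV n → ZMod 3) →ₗ[ZMod 3] (BV n → ZMod 3) where
  toFun f x := ((g.s * sgn (dot g.b x) : (ZMod 3)ˣ) : ZMod 3) * f (x + g.a)
  map_add' f f' := funext fun x => by simp [mul_add]
  map_smul' c f := funext fun x => by simp [mul_left_comm]

theorem opLin_mul (g h : Pauli n) (f : BV n → ZMod 3) : opLin (g * h) f = opLin g (opLin h f) := by
  funext x
  show ((g.s * h.s * sgn (dot h.b g.a) * sgn (dot (g.b + h.b) x) : (ZMod 3)ˣ) : ZMod 3) * f (x + (g.a + h.a))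
    = ((g.s * sgn (dot g.b x) : (ZMod 3)ˣ) : ZMod 3) *
      (((h.s * sgn (dot h.b (x + g.a)) : (ZMod 3)ˣ) : ZMod 3) * f (x + g.a + h.a))
  rw [dot_add_left, dot_add_right, sgn_add, sgn_add, add_assoc]
  push_cast
  ring

theorem opLin_one (f : BV n → ZMod 3) : opLin (1 : Pauli n) f = f := by
  funext x
  show ((1 * sgn (dot 0 x) : (ZMod 3)ˣ) : ZMod 3) * f (x + 0) = f x
  simp

/-- The representation. -/
def op : Pauli n →* Op n where
  toFun g := LinearEquiv.ofLinearMap (opLin g) (opLin g⁻¹)
    (LinearMap.ext fun f => by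
      rw [LinearMap.comp_apply, ← opLin_mul, mul_inv_cancel, opLin_one, LinearMap.id_apply])
    (LinearMap.ext fun f => by
      rw [LinearMap.comp_apply, ← opLin_mul, inv_mul_cancel, opLin_one, LinearMap.id_apply])
  map_one' := LinearEquiv.ext fun f => opLin_one f
  map_mul' g h := LinearEquiv.ext fun f => opLin_mul g h f

theorem op_apply (g : Pauli n) (f : BV n → ZMod 3) (x : BV n) :
    op g f x = ((g.s * sgn (dot g.b x) : (ZMod 3)ˣ) : ZMod 3) * f (x + g.a) := rfl

theorem op_zeta (z : (ZMod 3)ˣ) (f : BV n → ZMod 3) : op (zeta z : Pauli n) f = (z : ZMod 3) • f := by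
  funext x
  simp [op_apply, zeta]

/-- An operator commuting with all Pauli operators is `± 1`. -/
theorem eq_op_zeta_of_commute {M : Op n} (h : ∀ g : Pauli n, M * op g = op g * M) :
    ∃ z, M = op (zeta z) := by
  classical
  set δ : BV n → BV n → ZMod 3 := fun y => Pi.single y 1 with hδ
  have hdiag : ∀ y x : BV n, x ≠ y → M (δ y) x = 0 := by
    intro y x hxy
    obtain ⟨i, hi⟩ := Function.ne_iff.1 hxy
    set g : Pauli n := ⟨1, 0, Pi.single i 1⟩
    have hg : op g (δ y) = ((sgn (y i) : (ZMod 3)ˣ) : ZMod 3) • δ y := by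
      funext w
      rw [op_apply]
      by_cases hw : w = y
      · subst hw
        simp [g, hδ, dot_comm, dot_single]
      · simp [g, hδ, Pi.single_apply, hw]
    have h1 : op g (M (δ y)) x = M (op g (δ y)) x := congrFun (LinearEquiv.congr_fun (h g) (δ y)).symm x
    rw [hg, map_smul, op_apply] at h1
    simp [g, dot_comm, dot_single] at h1
    rcases h1 with h1 | h1
    · exfalso
      exact hi (by
        have : ∀ s t : ZMod 2, ((sgn s : (ZMod 3)ˣ) : ZMod 3) = sgn t → s = t := by decide
        exact this _ _ h1)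
    · exact h1
  have hconst : ∀ y : BV n, M (δ y) y = M (δ 0) 0 := by
    intro y
    set g : Pauli n := ⟨1, y, 0⟩
    have hg : op g (δ y) = δ 0 := by
      funext w
      rw [op_apply]
      simp only [g, hδ, dot_zero_left, sgn_zero, mul_one, Units.val_one, one_mul, Pi.single_apply]
      congr 1
      rw [eq_iff_iff]
      exact ⟨fun hw => by simpa using hw, fun hw => by rw [hw, zero_add]⟩
    have h1 : op g (M (δ y)) 0 = M (op g (δ y)) 0 := congrFun (LinearEquiv.congr_fun (h g) (δ y)).symm 0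
    rw [hg, op_apply] at h1
    simpa [g] using h1
  set c := M (δ 0) 0 with hc
  have hM : ∀ f, M f = c • f := by
    intro f
    have hf : f = ∑ y, f y • δ y := by
      funext x; simp [hδ, Pi.single_apply]
    conv_lhs => rw [hf]
    funext x
    simp only [map_sum, map_smul, Finset.sum_apply, Pi.smul_apply, smul_eq_mul]
    rw [Finset.sum_eq_single x (fun y _ hy => by rw [hdiag y x (Ne.symm hy), mul_zero])
      (fun hx => absurd (Finset.mem_univ x) hx), hconst, mul_comm]
  have hc0 : c ≠ 0 := fun h0 => by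
    have h1 := hM (δ 0)
    rw [h0, zero_smul] at h1
    have h2 := congrFun (M.injective (h1.trans M.map_zero.symm)) 0
    simp [hδ] at h2
  refine ⟨(Ne.isUnit hc0).unit, LinearEquiv.ext fun f => ?_⟩
  rw [op_zeta, hM, IsUnit.unit_spec]

/-- Additive sections over totally singular maps. -/
theorem exists_section (ι : BV n →ₗ[ZMod 2] BV n × BV n) (hι : ∀ a, dot (ι a).1 (ι a).2 = 0) :
    ∃ α : BV n → Pauli n, (∀ a a', α (a + a') = α a * α a') ∧ ∀ a, pr (α a) = Multiplicative.ofAdd (ι a) := by
  let A : Subgroup (Pauli n) :=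
    { carrier := {g | ∃ a, ι a = (g.a, g.b)}
      one_mem' := ⟨0, map_zero ι⟩
      mul_mem' := fun {g h} ⟨a, ha⟩ ⟨c, hc⟩ => ⟨a + c, by rw [map_add, ha, hc]; rfl⟩
      inv_mem' := fun {g} ⟨a, ha⟩ => ⟨a, ha⟩ }
  have hpol : ∀ a c, pol (ι a) (ι c) = 0 := by
    intro a c
    have h := hι (a + c)
    rw [map_add, Prod.fst_add, Prod.snd_add, dot_add_left, dot_add_right, dot_add_right, hι, hι] at h
    rw [pol, dot_comm (ι c).2, dot_comm (ι a).2]
    rw [zero_add, add_zero] at h
    exact h
  have hcomm : ∀ g h : A, g * h = h * g := by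
    rintro ⟨g, a, ha⟩ ⟨h, c, hc⟩
    refine Subtype.ext ?_
    show g * h = h * g
    rw [commute_eq g h, ← ha, ← hc, hpol, sgn_zero, show (zeta 1 : Pauli n) = 1 from rfl, one_mul]
  letI : CommGroup A := { (inferInstance : Group A) with mul_comm := hcomm }
  have hsq : ∀ x : Additive A, 2 • x = 0 := by
    intro x
    refine Additive.toMul.injective (Subtype.ext ?_)
    obtain ⟨g, a, ha⟩ := Additive.toMul x
    show ((Additive.toMul (2 • x) : A) : Pauli n) = 1
    rw [toMul_nsmul, SubgroupClass.coe_pow, pow_two, mul_self_eq]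
    obtain ⟨c, hc⟩ := (Additive.toMul x).2
    rw [show ((Additive.toMul x : A) : Pauli n).a = (ι c).1 by rw [hc],
      show ((Additive.toMul x : A) : Pauli n).b = (ι c).2 by rw [hc], hι, sgn_zero]
    rfl
  letI : Module (ZMod 2) (Additive A) := AddCommGroup.zmodModule hsq
  let f : Additive A →+ BV n × BV n :=
    { toFun := fun x => Multiplicative.toAdd (pr ((Additive.toMul x : A) : Pauli n))
      map_zero' := rfl
      map_add' := fun _ _ => rfl }
  let F : Additive A →ₗ[ZMod 2] LinearMap.range ι :=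
    LinearMap.codRestrict _ (f.toZModLinearMap 2) fun x => (Additive.toMul x).2
  obtain ⟨σ, hσ⟩ := LinearMap.exists_rightInverse_of_surjective F (LinearMap.range_eq_top.2 fun ⟨u, a, ha⟩ =>
    ⟨Additive.ofMul ⟨⟨1, u.1, u.2⟩, a, ha⟩, rfl⟩)
  refine ⟨fun a => ((Additive.toMul (σ (ι.rangeRestrict a)) : A) : Pauli n), fun a a' => ?_, fun a => ?_⟩
  · simp only [map_add, toMul_add, Subgroup.coe_mul]
  · have h := congrArg Subtype.val (LinearMap.congr_fun hσ (ι.rangeRestrict a))
    exact congrArg Multiplicative.ofAdd h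

theorem exists_shift {x : BV n} (hx : x ≠ 0) : ∃ e : BV n, dot e x = 1 := by
  obtain ⟨i, hi⟩ := Function.ne_iff.1 hx
  refine ⟨Pi.single i 1, ?_⟩
  rw [dot_comm, dot_single]
  have : ∀ t : ZMod 2, t ≠ 0 → t = 1 := by decide
  exact this _ hi

theorem sum_sgn (x : BV n) :
    ∑ b : BV n, ((sgn (dot b x) : (ZMod 3)ˣ) : ZMod 3) = if x = 0 then (2 : ZMod 3) ^ n else 0 := by
  by_cases hx : x = 0
  · subst hx
    simp
  rw [if_neg hx]
  obtain ⟨e, he⟩ := exists_shift hx
  set S := ∑ b : BV n, ((sgn (dot b x) : (ZMod 3)ˣ) : ZMod 3) with hS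
  have h : S = -S := by
    conv_lhs => rw [hS, ← Equiv.sum_comp (Equiv.addRight e)]
    rw [hS, ← Finset.sum_neg_distrib]
    refine Finset.sum_congr rfl fun b _ => ?_
    have h1 : sgn (1 : ZMod 2) = -1 := rfl
    rw [Equiv.coe_addRight, dot_add_left, he, sgn_add, h1, mul_neg, mul_one, Units.val_neg]
  have : ∀ s : ZMod 3, s = -s → s = 0 := by decide
  exact this S h

/-- Every isometry of the quadratic space is induced by an operator normalising the Pauli group. -/
theorem exists_lift (g : BV n × BV n →ₗ[ZMod 2] BV n × BV n)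
    (hg : ∀ u, dot (g u).1 (g u).2 = dot u.1 u.2) :
    ∃ M : Op n, ∀ h : Pauli n, ∃ h', M * op h * M⁻¹ = op h' ∧
      pr h' = Multiplicative.ofAdd (g (h.a, h.b)) := by
  classical
  obtain ⟨α, hα, hαp⟩ := exists_section (g.comp (LinearMap.inl _ _ _)) fun a => by simp [hg]
  obtain ⟨β, hβ, hβp⟩ := exists_section (g.comp (LinearMap.inr _ _ _)) fun a => by simp [hg]
  have hα0 : α 0 = 1 := by
    have h := hα 0 0; rw [add_zero] at h; exact mul_eq_left.1 h.symm
  have hβ0 : β 0 = 1 := by
    have h := hβ 0 0; rw [add_zero] at h; exact mul_eq_left.1 h.symm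
  have hpol : ∀ b x, pol ((β b).a, (β b).b) ((α x).a, (α x).b) = dot b x := by
    intro b x
    rw [show ((β b).a, (β b).b) = g (0, b) from congrArg Multiplicative.toAdd (hβp b),
      show ((α x).a, (α x).b) = g (x, 0) from congrArg Multiplicative.toAdd (hαp x)]
    have h := hg ((0, b) + (x, 0))
    rw [map_add, Prod.fst_add, Prod.snd_add, dot_add_left, dot_add_right, dot_add_right, hg, hg] at h
    simp only [Prod.mk_add_mk, zero_add, add_zero, dot_zero_left, dot_zero_right] at h
    rw [pol, dot_comm (g (x, 0)).2, dot_comm (g (0, b)).2, h, dot_comm]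
  have hswap : ∀ b x f, op (β b) (op (α x) f)
      = ((sgn (dot b x) : (ZMod 3)ˣ) : ZMod 3) • op (α x) (op (β b) f) := by
    intro b x f
    show (op (β b) * op (α x)) f = _
    rw [← map_mul, commute_eq, hpol, map_mul, map_mul]
    exact op_zeta _ _
  -- the projection onto the common fixed vectors of the `β b`
  set P : (BV n → ZMod 3) → BV n → (BV n → ZMod 3) := fun f z =>
    ∑ b : BV n, ((sgn (dot b z) : (ZMod 3)ˣ) : ZMod 3) • op (β b) f with hP
  have hfix : ∀ f b, op (β b) (P f 0) = P f 0 := by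
    intro f b
    simp only [hP, dot_zero_right, sgn_zero, Units.val_one, one_smul, map_sum]
    rw [← Equiv.sum_comp (Equiv.addLeft b) (fun c => op (β c) f)]
    refine Finset.sum_congr rfl fun c _ => ?_
    show op (β b) (op (β c) f) = op (β (b + c)) f
    rw [hβ, map_mul]; rfl
  obtain ⟨w, hw⟩ : ∃ w, P w 0 ≠ 0 := by
    by_contra hall
    push Not at hall
    set e : BV n → ZMod 3 := Pi.single 0 1
    have h1 : ∑ x : BV n, op (α x) (P (op (α x) e) 0) = 0 :=
      Finset.sum_eq_zero fun x _ => by rw [hall, map_zero]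
    have h2 : ∀ x, op (α x) (P (op (α x) e) 0)
        = ∑ b : BV n, ((sgn (dot b x) : (ZMod 3)ˣ) : ZMod 3) • op (β b) e := by
      intro x
      simp only [hP, dot_zero_right, sgn_zero, Units.val_one, one_smul, map_sum]
      refine Finset.sum_congr rfl fun b _ => ?_
      rw [hswap, map_smul]
      congr 1
      show (op (α x) * op (α x)) _ = _
      rw [← map_mul, ← hα, add_self_bv, hα0, map_one]
      rfl
    simp only [h2] at h1
    rw [Finset.sum_comm] at h1
    simp only [← Finset.sum_smul] at h1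
    have h3 : ∀ b : BV n, (∑ x : BV n, ((sgn (dot b x) : (ZMod 3)ˣ) : ZMod 3))
        = if b = 0 then (2 : ZMod 3) ^ n else 0 := fun b => by
      rw [← sum_sgn b]; exact Finset.sum_congr rfl fun x _ => by rw [dot_comm]
    simp only [h3, ite_smul, zero_smul, Finset.sum_ite_eq', Finset.mem_univ, if_true, hβ0,
      map_one] at h1
    have h4 := congrFun h1 0
    simp [e] at h4
    exact absurd h4.1 (by decide)
  set v := P w 0 with hv
  let Mlin : (BV n → ZMod 3) →ₗ[ZMod 3] (BV n → ZMod 3) :=
    { toFun := fun f => ∑ x : BV n, f x • op (α x) v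
      map_add' := fun f f' => by simp [add_smul, Finset.sum_add_distrib]
      map_smul' := fun c f => by simp [Finset.smul_sum, mul_smul] }
  have hinj : Function.Injective Mlin := by
    rw [injective_iff_map_eq_zero]
    intro f hf
    funext z
    have h1 : ∑ b : BV n, ((sgn (dot b z) : (ZMod 3)ˣ) : ZMod 3) • op (β b) (Mlin f) = 0 := by
      simp [hf]
    have h2 : ∀ b : BV n, ((sgn (dot b z) : (ZMod 3)ˣ) : ZMod 3) • op (β b) (Mlin f)
        = ∑ x : BV n, ((sgn (dot b (z + x)) : (ZMod 3)ˣ) : ZMod 3) • (f x • op (α x) v) := by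
      intro b
      show _ • op (β b) (∑ x : BV n, f x • op (α x) v) = _
      rw [map_sum, Finset.smul_sum]
      refine Finset.sum_congr rfl fun x _ => ?_
      rw [map_smul, hswap, hfix, dot_add_right, sgn_add, Units.val_mul, mul_smul, smul_comm (f x)]
    simp only [h2] at h1
    rw [Finset.sum_comm] at h1
    simp only [← Finset.sum_smul, sum_sgn, ite_smul, zero_smul] at h1
    rw [Finset.sum_eq_single z (fun x _ hx => if_neg fun h => hx (by
        calc x = (z + z) + x := by rw [add_self_bv, zero_add]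
          _ = z + (z + x) := add_assoc _ _ _
          _ = z := by rw [h, add_zero]))
      (fun hz => absurd (Finset.mem_univ z) hz), if_pos (add_self_bv z)] at h1
    rcases smul_eq_zero.1 h1 with h3 | h3
    · exact absurd (pow_eq_zero_iff'.1 h3).1 (by decide)
    rcases smul_eq_zero.1 h3 with h4 | h4
    · exact h4
    · exact absurd ((op (α z)).injective (h4.trans (map_zero _).symm)) hw
  let M : Op n := LinearEquiv.ofBijective Mlin ⟨hinj, Finite.injective_iff_surjective.1 hinj⟩
  have hMX : ∀ a, M * op (⟨1, a, 0⟩ : Pauli n) = op (α a) * M := by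
    intro a
    refine LinearEquiv.ext fun f => ?_
    show ∑ x : BV n, op (⟨1, a, 0⟩ : Pauli n) f x • op (α x) v = op (α a) (∑ x : BV n, f x • op (α x) v)
    rw [map_sum, ← Equiv.sum_comp (Equiv.addRight a) (fun x => op (⟨1, a, 0⟩ : Pauli n) f x • op (α x) v)]
    refine Finset.sum_congr rfl fun x _ => ?_
    rw [map_smul]
    show op (⟨1, a, 0⟩ : Pauli n) f (x + a) • op (α (x + a)) v = f x • (op (α a) * op (α x)) v
    rw [← map_mul, ← hα, add_comm a x, op_apply]
    simp [add_assoc, add_self_bv]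
  have hMZ : ∀ b, M * op (⟨1, 0, b⟩ : Pauli n) = op (β b) * M := by
    intro b
    refine LinearEquiv.ext fun f => ?_
    show ∑ x : BV n, op (⟨1, 0, b⟩ : Pauli n) f x • op (α x) v = op (β b) (∑ x : BV n, f x • op (α x) v)
    rw [map_sum]
    refine Finset.sum_congr rfl fun x _ => ?_
    rw [map_smul, hswap, hfix, op_apply, smul_smul]
    simp [mul_comm, hv]
  have hMc : ∀ z, M * op (zeta z : Pauli n) = op (zeta z) * M := fun z => LinearEquiv.ext fun f => by
    show M (op (zeta z : Pauli n) f) = op (zeta z : Pauli n) (M f)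
    rw [op_zeta, op_zeta, map_smul]
  refine ⟨M, fun h => ?_⟩
  obtain ⟨z, hz⟩ : ∃ z, h = zeta z * (⟨1, h.a, 0⟩ * ⟨1, 0, h.b⟩) :=
    ⟨h.s * (sgn (dot h.b h.a))⁻¹, by
      rw [zeta_mul, mul_def]
      refine Pauli.ext ?_ (add_zero _).symm (zero_add _).symm
      show h.s = h.s * (sgn (dot h.b h.a))⁻¹ * (1 * 1 * sgn (dot h.b h.a))
      simp⟩
  refine ⟨zeta z * (α h.a * β h.b), ?_, ?_⟩
  · conv_lhs => rw [hz]
    rw [mul_inv_eq_iff_eq_mul, map_mul, map_mul, map_mul, map_mul, ← mul_assoc, hMc, mul_assoc (op (zeta z)),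
      ← mul_assoc M, hMX, mul_assoc (op (α h.a)), hMZ]
    simp only [mul_assoc]
  · rw [map_mul, map_mul, hαp, hβp, show pr (zeta z : Pauli n) = 1 from rfl, one_mul, ← ofAdd_add]
    congr 1
    rw [LinearMap.comp_apply, LinearMap.comp_apply, ← map_add]
    simp

theorem op_injective : Function.Injective (op (n := n)) := by
  rw [← MonoidHom.ker_eq_bot_iff, eq_bot_iff]
  intro g hg
  rw [MonoidHom.mem_ker] at hg
  have key : ∀ (y : BV n) (f : BV n → ZMod 3),
      ((g.s * sgn (dot g.b y) : (ZMod 3)ˣ) : ZMod 3) * f (y + g.a) = f y := fun y f =>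
    congrFun (LinearEquiv.congr_fun hg f) y
  have ha : g.a = 0 := by
    by_contra ha
    have := key 0 (Pi.single 0 1)
    rw [zero_add, Pi.single_eq_of_ne ha, Pi.single_eq_same, mul_zero] at this
    exact zero_ne_one this
  have hu : ∀ y, g.s * sgn (dot g.b y) = 1 := fun y => Units.ext (by
    have := key y fun _ => 1
    simpa using this)
  have hs : g.s = 1 := by simpa using hu 0
  have hb : g.b = 0 := funext fun i => by
    have := hu (Pi.single i 1)
    rw [hs, one_mul, sgn_eq_one_iff, dot_single] at this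
    exact this
  exact Subgroup.mem_bot.2 (Pauli.ext hs ha hb)

/-- An operator acting trivially on the quadratic space is a Pauli operator. -/
theorem exists_op_of_trivial {M : Op n}
    (h : ∀ g : Pauli n, ∃ g', M * op g * M⁻¹ = op g' ∧ pr g' = pr g) : ∃ g, M = op g := by
  choose φ hφ hφp using h
  have hinj : Function.Injective (op (n := n)) := op_injective
  have hmul : ∀ g g', φ (g * g') = φ g * φ g' := fun g g' => hinj (by
    rw [map_mul, ← hφ, ← hφ, ← hφ, map_mul]; group)
  have hzeta : ∀ z, φ (zeta z) = zeta z := fun z => hinj (by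
    rw [← hφ, mul_inv_eq_iff_eq_mul]
    exact LinearEquiv.ext fun f => by
      show M (op (zeta z : Pauli n) f) = op (zeta z : Pauli n) (M f)
      rw [op_zeta, op_zeta, map_smul])
  have hsign : ∀ g, ∃ t, φ g = zeta (sgn t) * g := by
    intro g
    obtain ⟨t, ht⟩ := exists_sgn_eq ((φ g).s * g.s)
    refine ⟨t, ?_⟩
    have hp := congrArg Multiplicative.toAdd (hφp g)
    rw [zeta_mul, ht]
    refine Pauli.ext ?_ (congrArg Prod.fst hp :) (congrArg Prod.snd hp :)
    show (φ g).s = (φ g).s * g.s * g.s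
    rw [mul_assoc, unit_mul_self, mul_one]
  choose t ht using hsign
  have hzinj : ∀ s s', (zeta (sgn s) : Pauli n) = zeta (sgn s') → s = s' := fun s s' h => by
    exact sgn_inj _ _ (congrArg Pauli.s h :)
  have htmul : ∀ g g', t (g * g') = t g + t g' := fun g g' => hzinj _ _ (by
    have h1 := ht (g * g')
    have hc := Subgroup.mem_center_iff.1 (zeta_mem_center (n := n) (sgn (t g'))) g
    rw [hmul, ht, ht, mul_assoc, ← mul_assoc g, hc, mul_assoc, ← mul_assoc, mul_left_inj] at h1
    rw [← h1, zeta_mul, sgn_add]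
    rfl)
  have htz : ∀ z, t (zeta z) = 0 := fun z => hzinj _ _ (by
    have h1 := ht (zeta z)
    rw [hzeta, eq_comm, mul_eq_right] at h1
    rw [h1]; rfl)
  let ta : BV n →+ ZMod 2 := AddMonoidHom.mk' (fun a => t ⟨1, a, 0⟩) fun a a' => by
    rw [← htmul]; congr 1; simp [mul_def]
  let tb : BV n →+ ZMod 2 := AddMonoidHom.mk' (fun b => t ⟨1, 0, b⟩) fun b b' => by
    rw [← htmul]; congr 1; simp [mul_def]
  set k : Pauli n := ⟨1, fun i => tb (Pi.single i 1), fun i => ta (Pi.single i 1)⟩ with hk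
  have hexp : ∀ (f : BV n →+ ZMod 2) (x : BV n), f x = dot x fun i => f (Pi.single i 1) := by
    intro f x
    conv_lhs => rw [show x = ∑ i, x i • (Pi.single i (1 : ZMod 2) : BV n) by
      funext j; simp [Pi.single_apply]]
    rw [map_sum]
    exact Finset.sum_congr rfl fun i _ => ZMod.map_smul f _ _
  have hconj : ∀ g, φ g = k * g * k⁻¹ := by
    intro g
    rw [ht, eq_mul_inv_iff_mul_eq, mul_assoc, commute_eq k g]
    congr 2
    obtain ⟨z, hz⟩ : ∃ z, g = zeta z * (⟨1, g.a, 0⟩ * ⟨1, 0, g.b⟩) :=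
      ⟨g.s * (sgn (dot g.b g.a))⁻¹, by
        rw [zeta_mul, mul_def]
        refine Pauli.ext ?_ (add_zero _).symm (zero_add _).symm
        show g.s = g.s * (sgn (dot g.b g.a))⁻¹ * (1 * 1 * sgn (dot g.b g.a))
        simp⟩
    have hg : t g = ta g.a + tb g.b := by
      conv_lhs => rw [hz]
      rw [htmul, htmul, htz, zero_add]; rfl
    rw [hg, hexp ta, hexp tb, pol, hk]
    simp only
    rw [dot_comm (fun i => ta (Pi.single i 1)) g.a]
    congr 1
    exact add_comm _ _
  obtain ⟨z, hz⟩ := eq_op_zeta_of_commute (M := (op k)⁻¹ * M) fun g => by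
    have h1 : M * op g = op (k * g * k⁻¹) * M := by
      rw [← hconj, ← hφ]; group
    rw [mul_assoc, h1, map_mul, map_mul, map_inv]
    group
  exact ⟨k * zeta z, by rw [map_mul, ← hz, mul_inv_cancel_left]⟩

end CfsgLib.Replacement.Pauli
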